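import Cfsg.Agent.JQ.C

/-! # Groups of type `J₄` satisfy the presentation -/

set_option autoImplicit false
set_option maxRecDepth 100000
set_option linter.unusedSectionVars false

namespace Cfsg.Agent.JQ

open Cfsg.Agent.M24 Cfsg.Agent.TT Cfsg.Agent.GT Cfsg.Agent.J4 Cfsg.Agent.JP Subgroup MulAction
open scoped Pointwise symmDiff

/-- change of coordinates -/
def cu : ℕ := nat_lit 0x781b22593064505baaaba1dc334c41

theorem code_u {σ : M24} {p : ℕ} (h : mcode σ = p) : mcode (elt cu * σ * (elt cu)⁻¹) = cjap mul inv cu p := by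
  rw [← gcM.cjap_code, h, mcode_elt (by decide +kernel)]

variable {G H : Type*} [Group G] [Group H] [Finite G] {ι : H →* G} {z ω : H} {s : ℕ → H} {Λ : H →* R}

/-- the complement in standard coordinates -/
noncomputable def ku {N : Subgroup G} (κ : M24 →* N) : M24 →* G :=
  (N.subtype.comp κ).comp (MulAut.conj (elt cu)).toMonoidHom

theorem ku_eq {N : Subgroup G} (κ : M24 →* N) (σ : M24) : ku κ σ = κ (elt cu * σ * (elt cu)⁻¹) := rfl

theorem comm_of_gens {f : M24 →* G} {t : G} {l : List ℕ} (h : ∀ g, mcode g ∈ l → Commute (f g) t) :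
    ∀ g ∈ gen mcode l, Commute (f g) t := fun _ hg => mem_centralizer_singleton_iff.1
  (gen_le (H := (centralizer {t}).comap f) (fun g hg => mem_centralizer_singleton_iff.2 (h g hg)) hg)

namespace NK

variable {M : GM ι z ω s Λ} {y g : H} {T : ℕ → H} {π : N[M.V] →* M24} {κ : M24 →* N[M.V]} {v : H}
  (N : NK M y g T π κ v)
include N

theorem tt_mul (a b : ℕ) : ι (v * T a * v⁻¹) * ι (v * T b * v⁻¹) = ι (v * T (a ^^^ b) * v⁻¹) := by
  rw [← map_mul, conj_mul, N.jd.vc.co.mul]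

theorem tz : TZ (ku κ) (ι (v * T 1088 * v⁻¹)) (ι z) := by
  refine ⟨by rw [N.tt_mul, Nat.xor_self, N.jd.vc.co.zero]; simp, ?_, N.jd.mc.z_sq, ?_⟩
  · have key : ∀ w, ∃ σ, mcode σ = wev mul id one [nat_lit 0x3829530d257c6446c04cb051754dcb,
        nat_lit 0x236129a22b1394038cc5aa68cb3c37, nat_lit 0x7cd362460ca00a6138725a037534f5,
        nat_lit 0x14ccc6c50520ea97ba0b50032b9e96] w ∧ Commute (κ σ : G) (ι (v * T 1088 * v⁻¹)) := by
      refine wev_ind (P := fun c => ∃ σ, mcode σ = c ∧ Commute (κ σ : G) (ι (v * T 1088 * v⁻¹)))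
        ⟨1, gcM.code_one, by simp⟩ ?_ ?_
      · rintro _ _ ⟨a, rfl, ha⟩ ⟨b, rfl, hb⟩
        exact ⟨a * b, gcM.code_mul _ _, by rw [map_mul]; exact ha.mul_left hb⟩
      · simp only [List.forall_mem_cons]
        refine ⟨?_, ?_, ?_, ?_, by simp⟩ <;> refine (exists_mcode (by decide +kernel)).imp fun σ h => ⟨h, ?_⟩
        · exact N.comm1 h
        · exact N.cmw h (nat_lit 0x10432084220c43) (by decide +kernel)
        · exact N.cmw h (nat_lit 0x46411062) (by decide +kernel)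
        · exact N.cmw h (nat_lit 0x18844) (by decide +kernel)
    rw [stab_T0]
    refine comm_of_gens fun σ hσ => ?_
    have hg' : mcode σ ∈ [nat_lit 0xba2845d82c9c5ed340f54c9ca00c45,
      nat_lit 0xb496e51674bd502880614b1af810c7] := hσ
    simp only [List.mem_cons, List.not_mem_nil, or_false] at hg'
    rw [ku_eq]
    rcases hg' with e | e
    · exact N.comm1 ((code_u e).trans (by decide +kernel))
    · obtain ⟨τ, a, b⟩ := key (nat_lit 0x211048418c41)
      rwa [gcM.inj (((code_u e).trans (by decide +kernel)).trans a.symm)]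
  · rw [stab_S0]
    refine comm_of_gens fun σ hσ => ?_
    have hg' : mcode σ ∈ [nat_lit 0x6542403a87826651b6d1b89467c90b,
      nat_lit 0x9c0b27240d584947b10a88c56b9ea6] := hσ
    simp only [List.mem_cons, List.not_mem_nil, or_false] at hg'
    rw [ku_eq]
    rcases hg' with e | e <;> exact mul_inv_eq_iff_eq_mul.1
      ((N.cjT (c := 1024) (code_u e) (by decide +kernel)).trans (by rw [N.jd.vc.Tz]))

theorem ltT (k p w c : ℕ) (h : band (isM24 p) (band (band (JP.vl 143212179398400) (Nat.beq (al p 143212179398400) k))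
    (force (cjap mul inv cu p) fun q => wd q w (cjk c))) = true) :
    lt (ku κ) (ι (v * T 1088 * v⁻¹)) (ι z) k = ι (v * T c * v⁻¹) := by
  rw [band_eq, band_eq, Bool.and_eq_true, Bool.and_eq_true, force_eq] at h
  obtain ⟨σ, hσ⟩ := exists_mcode h.1
  rw [← N.tz.ltc hσ h.2.1, N.tz.lt_T0, ku_eq, N.cjw (code_u hσ) w c h.2.2]

theorem ltS (k p c : ℕ) (h : band (isM24 p) (band (band (JP.vl 3489) (Nat.beq (al p 3489) k))
    (force (cjap mul inv cu p) fun q => Nat.beq (tv (act q 65801)) c)) = true) :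
    lt (ku κ) (ι (v * T 1088 * v⁻¹)) (ι z) k = ι (T c) := by
  rw [band_eq, band_eq, Bool.and_eq_true, Bool.and_eq_true, force_eq] at h
  obtain ⟨σ, hσ⟩ := exists_mcode h.1
  rw [← N.tz.ltc hσ h.2.1, N.tz.lt_S0, ku_eq, N.cjT (code_u hσ) h.2.2]

theorem rz : JP.pw (ku κ) (ι (v * T 1088 * v⁻¹)) (ι z) zw = ι z := by
  simp only [zw, JP.pw, one_mul, N.tz.lt_T0]
  rw [N.ltT 158905320348096 (nat_lit 0x63c03136aa29936245d0b84f49ae48)
      (nat_lit 0x10c42) 640 (by decide +kernel),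
    N.ltT 184721292548392 (nat_lit 0x54a33182cc3b50111ab72ba0b251e9)
      (nat_lit 0x843) 704 (by decide +kernel),
    N.tt_mul, N.tt_mul, show 1088 ^^^ 704 ^^^ 640 = 1024 from rfl, N.jd.vc.Tz, M.zc, mul_inv_cancel_right]

theorem jr : JR (ku κ) (ι (v * T 1088 * v⁻¹)) := by
  refine N.tz.jr ?_ N.rz ?_ ?_
  · obtain ⟨σ, hσ⟩ := exists_mcode (p := nat_lit 0x8c8c2022a4a302f9aace3b46b49617) (by decide +kernel)
    rw [← conj_eq_one_iff (a := ku κ σ), N.tz.pw_conj' hσ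
      (w' := [158905317873960, 145243027719720, 143212179398400]) (by decide +kernel)]
    simp only [JP.pw, one_mul, N.tz.lt_T0]
    rw [N.ltT 158905317873960 (nat_lit 0x331d41de127b501129202c6cb24cf5)
      (nat_lit 0x42) 1280 (by decide +kernel),
      N.ltT 145243027719720 (nat_lit 0x3bdcb181aa6412114917896d424cd5)
      (nat_lit 0x862) 320 (by decide +kernel),
      N.tt_mul, N.tt_mul, show 1088 ^^^ 320 ^^^ 1280 = 0 from rfl, N.jd.vc.co.zero]
    simp
  · simp only [lnw, JP.pw, one_mul, N.tz.lt_S0]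
    rw [N.ltS 3891 (nat_lit 0x1cd77a261589892400aa7b1b63b822) 28 (by decide +kernel),
      N.ltS 658 (nat_lit 0xa5e2a09a0e5b4763b12428aa09be48) 1052 (by decide +kernel), ← N.jd.vc.Tz,
      ← map_mul, ← map_mul, ← N.jd.vc.co.mul, ← N.jd.vc.co.mul, show 1024 ^^^ 1052 ^^^ 28 = 0 from rfl,
      N.jd.vc.co.zero, map_one]
  · obtain ⟨σ, hσ⟩ := exists_mcode (p := nat_lit 0x1d4ea9c9d6781a9a218b812260dc45) (by decide +kernel)
    have e1 := N.tz.pw_conj' hσ (w := rLw) (w' := rLw) (by decide +kernel)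
    have e2 : σ * ρL * σ⁻¹ = ρL := gcM.inj (by rw [← gcM.cjap_code, hσ, code_ρL]; decide +kernel)
    have e3 := N.cjT (c := 36) (code_u hσ) (by decide +kernel)
    obtain ⟨a1, a2, a3⟩ := N.t0
    obtain ⟨h, e, b⟩ := N.word (code_u code_ρL) (nat_lit 0x31086208c4418841) (fun b r =>
      force (rmul (lget lW 0 15) r0) fun l => band (Nat.beq (17 ^^^ lin l 17) b) (Nat.beq (rmul l l) r))
      (by decide +kernel)
    have e4 : JP.pw (ku κ) (ι (v * T 1088 * v⁻¹)) (ι z) rLw =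
        ι (T 977 * (v * T 1088 * v⁻¹) * (T 977 * (v * T 1088 * v⁻¹))) := by
      simp only [rLw, JP.pw, one_mul, N.tz.lt_T0]
      rw [N.ltS 202 (nat_lit 0xb11a0796860d58e1c6e29ca0942cea) 977 (by decide +kernel)]
      simp only [map_mul, mul_assoc]
    simp only [force_eq, band_eq, Bool.and_eq_true, Nat.beq_eq] at b
    have c1 : M.cb (T 977 * (v * T 1088 * v⁻¹)) = 17 := by
      rw [M.cb_mul, a2, lin_zero, N.jd.vc.cbT _ (by norm_num)]; rfl
    have c2 : rc (Λ (T 977 * (v * T 1088 * v⁻¹))) = rmul (lget lW 0 15) r0 := by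
      rw [map_mul, gcR.code_mul, a3, N.jd.vc.ΛT _ (by norm_num)]; rfl
    generalize T 977 * (v * T 1088 * v⁻¹) = x at *
    rw [← ku_eq] at e e3
    rcases M.eq_of_crd (h := x * x) (k := h) (by rw [M.cb_mul, c1, c2, b.1])
      (gcR.inj (by rw [map_mul, gcR.code_mul, c2, b.2])) with k | k
    · rw [e4, k, e]
    rw [e4, k, map_mul, ← e, ← conj_mul, e3, ← map_inv, ← map_mul, ← map_mul, e2, mul_right_inj,
      ← N.jd.vc.Tz] at e1
    exact absurd (N.jd.px.co.eq (by norm_num) (by norm_num) e1) (by norm_num)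

theorem top (hc : IsCoatom N[M.V]) : closure (Set.range (ku κ) ∪ {ι (v * T 1088 * v⁻¹)}) = ⊤ := by
  set L := closure (Set.range (ku κ) ∪ {ι (v * T 1088 * v⁻¹)})
  have k1 : ∀ σ, ku κ σ ∈ L := fun σ => subset_closure (.inl ⟨σ, rfl⟩)
  have k2 : ∀ σ, (κ σ : G) ∈ L := fun σ => by
    have := k1 ((elt cu)⁻¹ * σ * elt cu)
    rwa [ku_eq, show elt cu * ((elt cu)⁻¹ * σ * elt cu) * (elt cu)⁻¹ = σ by group] at this
  have k3 : ι (v * T 1088 * v⁻¹) ∈ L := subset_closure (.inr rfl)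
  have k4 : ∀ k, VT k → lt (ku κ) (ι (v * T 1088 * v⁻¹)) (ι z) k ∈ L := by
    rintro _ ⟨σ, rfl⟩
    rw [N.tz.lt_T]; exact mul_mem (mul_mem (k1 _) k3) (inv_mem (k1 _))
  have k5 : ι z ∈ L := by
    rw [← N.rz]
    simp only [zw, JP.pw, one_mul]
    exact mul_mem (mul_mem (k4 _ vt0) (k4 _ (vt_has (by decide +kernel)))) (k4 _ (vt_has (by decide +kernel)))
  have m := N.jd.ms
  have k6 : ∀ X : Finset GolayPt, X.card = 4 → ι (T (tv (mask X))) ∈ L := fun X hX => by
    obtain ⟨p, hp, e⟩ := trans_sets (card_X0.trans hX.symm) (by rw [card_X0]; norm_num)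
    have := m.conj_κ ⟨p, hp⟩ (X := X0) (by rw [card_X0]; decide)
    rw [tv_X0, M24_smul_def, e, N.jd.vc.Tz] at this
    exact this ▸ mul_mem (mul_mem (k2 _) k5) (inv_mem (k2 _))
  have k7 : M.V ≤ L := fun x hx => by
    obtain ⟨c, hc, rfl⟩ := N.jd.px.co.surj x hx
    have t : ∀ a < 2048, tbq 102 (cl clT6 a) = true → ι (T a) ∈ L := fun a ha h => by
      obtain ⟨X, hX, e⟩ := m.tetrad_of_conj (N.jd.px.co.mem a) ((N.jd.cls a ha).2 h)
      exact e ▸ k6 X hX
    refine bits_induction (n := 11) (P := fun a => ι (T a) ∈ L) (by simp [N.jd.vc.co.zero]) (fun i hi => ?_)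
      (fun a _ b _ h1 h2 => by rw [N.jd.vc.co.mul, map_mul]; exact mul_mem h1 h2) c hc
    obtain ⟨a, ha, h1, h2, h3⟩ : ∃ a < 2048, tbq 102 (cl clT6 a) = true ∧ 2 ^ i ^^^ a < 2048 ∧
        tbq 102 (cl clT6 (2 ^ i ^^^ a)) = true := by
      revert i; decide +kernel
    have := mul_mem (t _ h2 h3) (t a ha h1)
    rwa [← map_mul, ← N.jd.vc.co.mul, Nat.xor_assoc, Nat.xor_self, Nat.xor_zero] at this
  refine hc.2 _ (lt_of_le_of_ne (fun n hn => ?_) fun e => N.not_mem (e ▸ k3))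
  simpa using mul_mem (k7 (m.mul_inv_κ_mem ⟨n, hn⟩)) (k2 (π ⟨n, hn⟩))

end NK

theorem iso_of_gm [IsSimpleGroup G] (hG : ¬ IsMulCommutative G) (M : GM ι z ω s Λ) : Spor.IsoJ4 G := by
  obtain ⟨y, g, T, π, κ, J⟩ := M.exists_jd hG
  obtain ⟨κ', J', h⟩ := J.exists_jg
  obtain ⟨κ2, J2, h2⟩ := exists_nk J
  obtain ⟨v, hv, e⟩ := M.lift _ (mem_Lm_of (k := kV) (by simp [gL]))
  have N : NK M y g T π κ2 v := ⟨J2, h2, hv, by rw [e, rc_relt (by decide +kernel)]⟩
  exact iso_of N.jr (N.top (J'.coatom_V h)) J.card_G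

end Cfsg.Agent.JQ
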