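import Cfsg.Agent.J4.GA
import Cfsg.Agent.J4.Gasch
import Cfsg.Agent.TT.Comp

/-! # The non-split extension `3.M₂₂.2` acting on an extraspecial group -/

set_option autoImplicit false
set_option maxRecDepth 100000

namespace Cfsg.Agent.JQ

open Cfsg.Agent.M24 Cfsg.Agent.TT Cfsg.Agent.GT Cfsg.Agent.J4 Subgroup

theorem card_cube {M : Type*} [AddCommGroup M] [Finite M] (m2 : ∀ m : M, m + m = 0) {A B U : Module.End ℤ M}
    (u3 : ∀ m, U (U (U m)) = m) (a3 : ∀ m, A (A (A m)) = m) (au : ∀ m, A (U m) = U (A m))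
    (bu : ∀ m, B (U m) = U (B m)) (ba : ∀ m, B (A m) = A (U (B m))) (bi : Function.Injective B)
    {W : AddSubgroup M} (hW : ∀ m, m ∈ W ↔ m + U m + U (U m) = 0) : ∃ c, Nat.card W = c ^ 3 := by
  let F : Module.End ℤ M → AddSubgroup M := fun T => W ⊓ (A - T).toAddMonoidHom.ker
  have hF : ∀ T m, m ∈ F T ↔ m ∈ W ∧ A m = T m := fun T m => and_congr_right fun _ => sub_eq_zero
  have le : ∀ T T' : Module.End ℤ M, (∀ m, U (U (B (T m))) = T' (B m)) → Nat.card (F T) ≤ Nat.card (F T') :=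
    fun T T' h => Nat.card_le_card_of_injective (fun m => ⟨B m, (hF _ _).2 ⟨(hW _).2 (by
      rw [← bu, ← bu, ← map_add, ← map_add, (hW _).1 m.2.1, map_zero]), by
        rw [← h, ← ((hF _ _).1 m.2).2, ba, au, u3]⟩⟩) fun a b e => Subtype.ext (bi (congrArg Subtype.val e))
  have l1 := le 1 (U * U) fun m => rfl
  have l2 := le (U * U) U fun m => by simp only [Module.End.mul_apply, bu, u3]
  have l3 := le U 1 fun m => by simp only [Module.End.one_apply, bu, u3]
  let f : F 1 × F U × F (U * U) →+ M := (F 1).subtype.coprod ((F U).subtype.coprod (F (U * U)).subtype)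
  have hi : Function.Injective f := (injective_iff_map_eq_zero f).2 fun ⟨x, y, z⟩ h => by
    change x.1 + (y.1 + z.1) = 0 at h
    obtain ⟨-, x2⟩ := (hF _ _).1 x.2
    obtain ⟨y1, y2⟩ := (hF _ _).1 y.2
    obtain ⟨z1, z2⟩ := (hF _ _).1 z.2
    rw [hW] at y1 z1
    have h1 := congrArg A h
    have h2 := congrArg A h1
    simp only [map_add, map_zero, x2, y2, z2, au, Module.End.mul_apply, Module.End.one_apply, u3] at h1 h2
    have hx : x.1 = 0 := by linear_combination (norm := abel) h + h1 + h2 - y1 - z1 - m2 x.1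
    have hz : z.1 = y.1 := by linear_combination (norm := abel) h - hx - m2 y.1
    rw [hz] at h1
    have hy : y.1 = 0 := by linear_combination (norm := abel) y1 - h1 + hx
    exact Prod.ext (Subtype.ext hx) (Prod.ext (Subtype.ext hy) (Subtype.ext (hz.trans hy)))
  have hr : f.range = W := by
    refine le_antisymm ?_ fun m hm => ?_
    · rintro _ ⟨⟨x, y, z⟩, rfl⟩; exact add_mem x.2.1 (add_mem y.2.1 z.2.1)
    have wA : ∀ m ∈ W, A m ∈ W := fun m hm => (hW _).2 (by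
      rw [← au, ← au, ← map_add, ← map_add, (hW _).1 hm, map_zero])
    have wU : ∀ m ∈ W, U m ∈ W := fun m hm => (hW _).2 (by
      rw [← map_add, ← map_add, (hW _).1 hm, map_zero])
    refine ⟨⟨⟨m + A m + A (A m), (hF _ _).2 ⟨add_mem (add_mem hm (wA _ hm)) (wA _ (wA _ hm)), ?_⟩⟩,
      ⟨m + U (U (A m)) + U (A (A m)), (hF _ _).2 ⟨add_mem (add_mem hm (wU _ (wU _ (wA _ hm))))
        (wU _ (wA _ (wA _ hm))), ?_⟩⟩,
      ⟨m + U (A m) + U (U (A (A m))), (hF _ _).2 ⟨add_mem (add_mem hm (wU _ (wA _ hm)))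
        (wU _ (wU _ (wA _ (wA _ hm)))), ?_⟩⟩⟩, ?_⟩
    iterate 3
      simp only [map_add, au, a3, u3, Module.End.mul_apply, Module.End.one_apply]; abel
    show (m + A m + A (A m)) + ((m + U (U (A m)) + U (A (A m))) + (m + U (A m) + U (U (A (A m))))) = m
    linear_combination (norm := abel) m2 m + (hW _).1 (wA _ hm) + (hW _).1 (wA _ (wA _ hm))
  refine ⟨Nat.card (F 1), ?_⟩
  rw [← hr, ← Nat.card_congr (AddMonoidHom.ofInjective hi).toEquiv, Nat.card_prod, Nat.card_prod,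
    le_antisymm l3 (l1.trans l2), le_antisymm (l2.trans l3) l1]
  ring

theorem fpf {Γ M : Type*} [Group Γ] [AddCommGroup M] (ρ : Γ →* Module.End ℤ M) (m2 : ∀ m : M, m + m = 0)
    (mc : Nat.card M = 4096) {x g j u a b : Γ} (ha : a = x * (g * x * g⁻¹)) (hb : b = j * a * j⁻¹)
    (x11 : x ^ 11 = 1) (u3 : u * u * u = 1) (a3 : a * a * a = 1)
    (hu : ∀ g, g⁻¹ * u * g = u ∨ g⁻¹ * u * g = u * u) (au : a * u = u * a) (bu : b * u = u * b)
    (ba : b * a = a * u * b) (h1 : ρ u ≠ 1) (m : M) (hm : ρ u m = m) : m = 0 := by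
  have : Finite M := Nat.finite_of_card_ne_zero (by rw [mc]; norm_num)
  have mu : ∀ g h m, ρ g (ρ h m) = ρ (g * h) m := fun g h m => by rw [map_mul]; rfl
  have o : ∀ m, ρ 1 m = m := fun m => by rw [map_one]; rfl
  let W := (1 + ρ u + ρ u * ρ u).toAddMonoidHom.ker
  have hW : ∀ m, m ∈ W ↔ m + ρ u m + ρ u (ρ u m) = 0 := fun _ => Iff.rfl
  obtain ⟨c, hc⟩ := card_cube m2 (A := ρ a) (B := ρ b) (U := ρ u) (fun m => by rw [mu, mu, u3, o])
    (fun m => by rw [mu, mu, a3, o]) (fun m => by rw [mu, mu, au]) (fun m => by rw [mu, mu, bu])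
    (fun m => by rw [mu, mu, mu, ba]) (fun m n e => by
      have := congrArg (ρ b⁻¹) e
      rwa [mu, mu, inv_mul_cancel, o, o] at this) hW
  have wg : ∀ g, ∀ m ∈ W, ρ g m ∈ W := fun g m hm => by
    have e : ∀ m, ρ u (ρ g m) = ρ g (ρ (g⁻¹ * u * g) m) := fun m => by
      rw [mu, mu, mul_assoc, mul_inv_cancel_left]
    rw [hW] at hm ⊢
    rw [e, e, ← map_add, ← map_add]
    rcases hu g with h | h <;> rw [h]
    · rw [hm, map_zero]
    · rw [mu, ← mul_assoc, u3, one_mul, ← mu, add_right_comm, hm, map_zero]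
  have three : ∀ m ∈ W, ρ u m = m → m = 0 := fun m h1 h2 => by
    rw [hW, h2, h2, m2, zero_add] at h1; exact h1
  obtain ⟨k, hk, ek⟩ := (Nat.dvd_prime_pow Nat.prime_two).1
    (show Nat.card W ∣ 2 ^ 12 from (show Nat.card M = 2 ^ 12 from mc) ▸ W.card_addSubgroup_dvd_card)
  obtain ⟨i, -, rfl⟩ := (Nat.dvd_prime_pow Nat.prime_two).1 (show c ∣ 2 ^ k from ⟨c ^ 2, by rw [← ek, hc]; ring⟩)
  rw [ek, ← pow_mul, Nat.pow_right_inj (by norm_num)] at hc
  by_cases h12 : k = 12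
  · exact three m (AddSubgroup.eq_top_of_card_eq W (by rw [ek, h12, mc]; norm_num) ▸ trivial) hm
  exfalso
  have : Fact (Nat.Prime 11) := ⟨by norm_num⟩
  have h2 := exists_fix (p := 11) (f := ρ x) (by rw [← map_pow, x11, map_one]) (wg x)
  let D := W ⊓ (ρ x - 1).toAddMonoidHom.ker
  have hD : ∀ m, m ∈ D ↔ m ∈ W ∧ ρ x m = m := fun m => and_congr_right fun _ => sub_eq_zero
  rw [show Nat.card {m : W // ρ x m = m} = Nat.card D from Nat.card_congr
    ⟨fun m => ⟨m.1, (hD _).2 ⟨m.1.2, m.2⟩⟩, fun m => ⟨⟨m, m.2.1⟩, ((hD _).1 m.2).2⟩, fun _ => rfl, fun _ => rfl⟩] at h2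
  obtain ⟨l, hl, el⟩ := (Nat.dvd_prime_pow Nat.prime_two).1
    (ek ▸ AddSubgroup.card_dvd_of_le (inf_le_left : D ≤ W))
  have h3 : D = W := AddSubgroup.eq_of_le_of_card_ge inf_le_left (by
    rw [ek, el] at h2 ⊢
    have : ∀ k < 10, ∀ l ≤ k, 2 ^ k % 11 = 2 ^ l % 11 → 2 ^ k ≤ 2 ^ l := by decide
    exact this k (by omega) l hl h2)
  have t1 : ∀ m ∈ W, ρ x m = m := fun m hm => ((hD m).1 (h3 ▸ hm)).2
  have t2 : ∀ g y, (∀ m ∈ W, ρ y m = m) → ∀ m ∈ W, ρ (g * y * g⁻¹) m = m := fun g y h m hm => by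
    rw [← mu, ← mu, h _ (wg _ _ hm), mu, mul_inv_cancel, o]
  have t3 : ∀ m ∈ W, ρ a m = m := fun m hm => by rw [ha, ← mu, t2 g x t1 m hm, t1 m hm]
  have t4 : ∀ m ∈ W, ρ b m = m := hb ▸ t2 j a t3
  refine h1 (LinearMap.ext fun m => ?_)
  have h4 : m + ρ u m ∈ W := by
    rw [hW]
    simp only [map_add, mu, ← mul_assoc, u3, o]
    linear_combination (norm := abel) m2 m + m2 (ρ u m) + m2 (ρ (u * u) m)
  have h5 := three _ h4 (by
    have := congrArg (fun g => ρ g (m + ρ u m)) ba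
    simp only [← mu] at this
    rw [t3 _ h4, t4 _ h4, t3 _ (wg _ _ h4)] at this
    exact this.symm)
  show ρ u m = m
  linear_combination (norm := abel) h5 - m2 m

theorem three {Γ : Type*} [Group Γ] [Finite Γ] {w : Γ} {θ : Γ →* M24} (hw : orderOf w = 3)
    (hk : θ.ker = zpowers w) (hr : θ.range = Dd) (hns : ∀ K, ¬ IsComplement' θ.ker K) :
    (∃ l, l * w ≠ w * l) ∧ ∃ x g j u a b : Γ, a = x * (g * x * g⁻¹) ∧ b = j * a * j⁻¹ ∧ x ^ 11 = 1 ∧
      (u = w ∨ u = w * w) ∧ a * a * a = 1 ∧ a * w = w * a ∧ b * w = w * b ∧ b * a = a * u * b := by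
  have w3 : w ^ 3 = 1 := hw ▸ pow_orderOf_eq_one w
  have cK : Nat.card θ.ker = 3 := by rw [hk, Nat.card_zpowers, hw]
  have kc : ∀ g, θ g = 1 → g = 1 ∨ g = w ∨ g = w * w := fun g h => mem_zp_three w3 (hk ▸ h)
  have k3 : ∀ g, θ g = 1 → g ^ 3 = 1 := fun g h => cK ▸ PG.pow_card_eq_one_of_mem (H := θ.ker) h
  have kw : ∀ a g, Commute a w → θ g = 1 → Commute a g := fun a g h e => by
    rcases kc g e with rfl | rfl | rfl
    exacts [Commute.one_right _, h, h.mul_right h]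
  have hθw : θ w = 1 := show w ∈ θ.ker from hk ▸ mem_zpowers w
  have sq : ∀ g, Commute (g ^ 2) w := fun g => by
    rcases kc (g * w * g⁻¹) (by simp [hθw]) with h | h | h
    · rw [conj_eq_one_iff.1 h]; simp
    · exact Commute.pow_left (mul_inv_eq_iff_eq_mul.1 h) 2
    · refine mul_inv_eq_iff_eq_mul.1 ?_
      calc _ = g * (g * w * g⁻¹) * g⁻¹ := by simp [pow_two, mul_assoc]
        _ = w ^ 3 * w := by rw [h, ← conj_mul, h]; simp [pow_succ, mul_assoc]
        _ = w := by rw [w3, one_mul]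
  have odd : ∀ g, θ g ^ 3 = 1 → Commute g w := fun g h => by
    have := (sq g).inv_left.mul_left (kw w _ (Commute.refl w) ((map_pow θ g 3).trans h)).symm
    rwa [pow_succ g 2, inv_mul_cancel_left] at this
  have lift : ∀ c, band (isM24 c) (sift mul one ap chD c) = true → ∃ g, mcode (θ g) = c := fun c hc => by
    rw [band_eq, Bool.and_eq_true] at hc
    obtain ⟨d, hd⟩ := exists_mcode hc.1
    obtain ⟨g, rfl⟩ : d ∈ θ.range := by rw [hr, Dd_eq', mem_iff_sift chD_chk, hd]; exact hc.2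
    exact ⟨g, hd⟩
  obtain ⟨x0, hx0⟩ := lift (nat_lit 0xbd6717b56939461b52507314831040) (by decide +kernel)
  obtain ⟨g, hg⟩ := lift (nat_lit 0xb86696521132075b364b23d453b840) (by decide +kernel)
  obtain ⟨j, hj⟩ := lift (nat_lit 0xba9628cc2c695f023928a8ec7a1a40) (by decide +kernel)
  obtain ⟨n, hn⟩ := lift (nat_lit 0x3a086be648882c395265d075b2a57) (by decide +kernel)
  have x11 : (x0 ^ 12) ^ 11 = 1 := by
    rw [← pow_mul, show 12 * 11 = 11 * 3 * 4 from rfl, pow_mul, pow_mul, k3 _ (gcM.inj (by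
      rw [map_pow, ← gcM.cpow_code, hx0, gcM.code_one]; decide +kernel)), one_pow]
  have hx : mcode (θ (x0 ^ 12)) = nat_lit 0xbd6717b56939461b52507314831040 := by
    rw [map_pow, ← gcM.cpow_code, hx0]; decide +kernel
  generalize x0 ^ 12 = x at *
  obtain ⟨a, ea⟩ : ∃ a, a = x * (g * x * g⁻¹) := ⟨_, rfl⟩
  obtain ⟨b, eb⟩ : ∃ b, b = j * a * j⁻¹ := ⟨_, rfl⟩
  have ha : mcode (θ a) = nat_lit 0xb88860c5b59aa4c58d343a2d0715e0 := by
    simp only [ea, map_mul, map_inv, gcM.code_mul, gcM.code_inv, hx, hg]; decide +kernel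
  have hb : mcode (θ b) = nat_lit 0xbaaa50b6509d22b39922659c440de0 := by
    simp only [eb, map_mul, map_inv, gcM.code_mul, gcM.code_inv, ha, hj]; decide +kernel
  have f : ∀ y, mcode (θ y) = one → θ y = 1 := fun y h => gcM.inj (h.trans gcM.code_one.symm)
  have f1 := f (a ^ 3) (by rw [map_pow, ← gcM.cpow_code, ha]; decide +kernel)
  have f2 := f (b ^ 3) (by rw [map_pow, ← gcM.cpow_code, hb]; decide +kernel)
  have f3 := f (j ^ 2 * a * (j ^ 2)⁻¹ * a) (by
    simp only [pow_two, map_mul, map_inv, gcM.code_mul, gcM.code_inv, ha, hj]; decide +kernel)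
  have f4 := f (a⁻¹ * b * a * b⁻¹) (by
    simp only [map_mul, map_inv, gcM.code_mul, gcM.code_inv, ha, hb]; decide +kernel)
  have f5 := f (a⁻¹ * (n * a * n⁻¹)) (by
    simp only [map_mul, map_inv, gcM.code_mul, gcM.code_inv, ha, hn]; decide +kernel)
  have f6 := f (b * (n * b * n⁻¹)) (by
    simp only [map_mul, map_inv, gcM.code_mul, gcM.code_inv, hb, hn]; decide +kernel)
  have ca := odd a (by rw [← map_pow, f1])
  have cb := odd b (by rw [← map_pow, f2])
  have a3 : a ^ 3 = 1 := by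
    have h1 := ((kw a _ ca f3).inv_left.symm.mul_pow 3)
    rw [mul_inv_cancel_right, conj_pow, (kw _ _ (sq j) f1).eq, mul_inv_cancel_right, k3 _ f3, one_mul,
      inv_pow, eq_inv_iff_mul_eq_one] at h1
    rw [← k3 _ f1, pow_three (a ^ 3), h1, mul_one]
  have b3 : b ^ 3 = 1 := by rw [eb, conj_pow, a3]; simp
  obtain ⟨u, eu⟩ : ∃ u, u = a⁻¹ * b * a * b⁻¹ := ⟨_, rfl⟩
  have ba : b * a = a * u * b := by rw [eu]; group
  rw [← eu] at f4
  have u1 : u ≠ 1 := fun e => by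
    rw [e, mul_one] at ba
    have key : ∀ p ∈ zpowers a, ∀ q ∈ zpowers b, θ (p * q) = 1 → p = 1 ∧ q = 1 := fun p hp q hq h => by
      have h1 := congrArg mcode h
      rcases mem_zp_three a3 hp with rfl | rfl | rfl <;> rcases mem_zp_three b3 hq with rfl | rfl | rfl <;>
        first
        | exact ⟨rfl, rfl⟩
        | (simp only [map_mul, map_one, gcM.code_mul, gcM.code_one, ha, hb] at h1
           exact absurd h1 (by decide +kernel))
    have nA : zpowers a ≤ N[zpowers b] := zpowers_le.2 (mem_normalizer_of_conj_le (by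
      rw [conj_zpowers, ← ba, mul_inv_cancel_right]))
    have o3 : ∀ c : Γ, c ^ 3 = 1 → c ≠ 1 → Nat.card (zpowers c) = 3 := fun c h h' => by
      have : Fact (Nat.Prime 3) := ⟨by norm_num⟩
      rw [Nat.card_zpowers, orderOf_eq_prime h h']
    have c1 := card_sup_of_inf_eq_bot (.inl nA) (eq_bot_iff.2 fun p hp =>
      (key p hp.1 p⁻¹ (inv_mem hp.2) (by simp)).1)
    rw [o3 a a3 (fun e => by rw [e, map_one, gcM.code_one] at ha; revert ha; decide +kernel),
      o3 b b3 (fun e => by rw [e, map_one, gcM.code_one] at hb; revert hb; decide +kernel)] at c1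
    have c2 : (zpowers a ⊔ zpowers b) ⊓ θ.ker = ⊥ := eq_bot_iff.2 fun p hp => by
      obtain ⟨r, hr, s, hs, rfl⟩ := (mem_sup_of_le_norm nA).1 hp.1
      obtain ⟨rfl, rfl⟩ := key r hr s hs hp.2
      simp
    have c3 := card_sup_of_inf_eq_bot (.inl le_norm_of_normal) c2
    have c4 := card_mul_index ((zpowers a ⊔ zpowers b) ⊔ θ.ker)
    have c5 := card_mul_index θ.ker
    rw [index_ker, hr, card_Dd, cK] at c5
    rw [c3, c1, cK, ← c5] at c4
    have : IsMulCommutative θ.ker := hk ▸ inferInstance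
    obtain ⟨K, hK⟩ := gaschutz θ.ker ((zpowers a ⊔ zpowers b) ⊔ θ.ker) le_sup_right (by
      rw [cK, show ((zpowers a ⊔ zpowers b) ⊔ θ.ker).index = 98560 by omega]; norm_num) _ le_sup_left c2
      (sup_comm _ _)
    exact hns K hK
  refine ⟨by_contra fun h => u1 ?_, x, g, j, u, a, b, ea, eb, x11, (kc u f4).resolve_left u1,
    by rw [← a3, pow_three'], ca, cb, ba⟩
  push Not at h
  have h1 := congrArg (fun y => n * y * n⁻¹) ba
  simp only [← conj_mul] at h1
  rw [(kw n u (h n) f4).eq, mul_inv_cancel_right, ← mul_inv_cancel_left a (n * a * n⁻¹),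
    ← inv_mul_cancel_left b (n * b * n⁻¹)] at h1
  generalize a⁻¹ * (n * a * n⁻¹) = p at h1 f5
  generalize b * (n * b * n⁻¹) = q at h1 f6
  have c : ∀ y, θ y = 1 → ∀ t, y * t = t * y := fun y e t => (kw t y (h t) e).eq.symm
  have h2 : b⁻¹ * a * (p * q) = a * u * b⁻¹ * (p * q) := by
    calc _ = b⁻¹ * (q * (a * p)) := by rw [c q f6]; group
      _ = a * (p * (u * b⁻¹)) * q := by rw [← mul_assoc, h1]; group
      _ = _ := by rw [c p f5]; group
  have h3 : a * b = a * b * (u * u) := by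
    calc _ = b * (b⁻¹ * a) * b := by group
      _ = b * a * u := by rw [mul_right_cancel h2]; group
      _ = _ := by rw [ba, mul_assoc a, c u f4]; group
  rw [← k3 u f4, pow_three, left_eq_mul.1 h3, mul_one]

theorem hm_of_nonsplit {H : Type*} [Group H] [Finite H] {E N : Subgroup H} [E.Normal] [N.Normal] {z : H}
    (hE : ES E z) (hz : ∀ h, h * z = z * h) (hc : Nat.card E = 2 ^ 13) (hC : C[E] ≤ E) (hEN : E ≤ N)
    (hN : Nat.card N = 3 * 2 ^ 13) (θ : H →* M24) (hk : θ.ker = N) (hr : θ.range = Dd)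
    (hns : ∀ K : Subgroup H, K ⊓ N = E → K ⊔ N = ⊤ → False) : ∃ ω s Λ, HM z ω s Λ := by
  obtain ⟨ω, hω, ho⟩ := exists_mem_orderOf_eq (H := N) (p := 3) (by norm_num) (by rw [hN]; norm_num)
  have cP : Nat.card (zpowers ω) = 3 := by rw [Nat.card_zpowers, ho]
  have hEP : zpowers ω ⊓ E = ⊥ := GT.inf_eq_bot_of_coprime (by rw [cP, hc]; norm_num)
  have hPN : zpowers ω ≤ N := zpowers_le_of_mem hω
  have hNe : zpowers ω ⊔ E = N := eq_of_le_of_card_ge (sup_le hPN hEN) (by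
    rw [card_sup_of_inf_eq_bot (Or.inl le_norm_of_normal) hEP, cP, hc, hN])
  have w3 : ω ^ 3 = 1 := ho ▸ pow_orderOf_eq_one ω
  have : Fact (Nat.Prime 3) := ⟨by norm_num⟩
  let q := QuotientGroup.mk' E
  have qs : Function.Surjective q := QuotientGroup.mk'_surjective E
  have hq : ∀ h, q h = 1 ↔ h ∈ E := fun h => QuotientGroup.eq_one_iff h
  let θ' : H ⧸ E →* M24 := QuotientGroup.lift E θ fun g hg => show g ∈ θ.ker from hk ▸ hEN hg
  have k1 : θ'.ker = N.map q := by rw [QuotientGroup.ker_lift, hk]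
  have k2 : θ'.ker = zpowers (q ω) := by
    rw [k1, ← hNe, Subgroup.map_sup, MonoidHom.map_zpowers, (map_eq_bot_iff E).2 (by simp [q]), sup_bot_eq]
  have nE : ∀ g ∈ zpowers ω, g ∈ E → g = 1 := fun g h1 h2 => mem_bot.1 (hEP ▸ ⟨h1, h2⟩)
  have w1 : q ω ≠ 1 := fun h => by
    rw [nE ω (mem_zpowers ω) ((hq ω).1 h), orderOf_one] at ho; omega
  have q3 : q ω ^ 3 = 1 := by rw [← map_pow, w3, map_one]
  obtain ⟨⟨l, hl⟩, x, g, j, u, a, b, ea, eb, x11, hu, a3, aw, bw, ba⟩ := three (w := q ω) (θ := θ')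
    (orderOf_eq_prime q3 w1) k2
    (by rw [← hr]; ext g; simp only [MonoidHom.mem_range]
        exact ⟨fun ⟨h, e⟩ => by obtain ⟨h, rfl⟩ := qs h; exact ⟨h, e⟩, fun ⟨h, e⟩ => ⟨q h, e⟩⟩)
    fun K hK => hns (K.comap q) (by
      rw [← comap_map_eq_self (f := q) (H := N) (by simpa [q] using hEN), ← k1, ← comap_inf, inf_comm,
        hK.disjoint.eq_bot, MonoidHom.comap_bot, QuotientGroup.ker_mk']) (by
      rw [← comap_map_eq_self (f := q) (H := N) (by simpa [q] using hEN), ← k1,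
        comap_sup_eq _ _ _ qs, sup_comm, hK.sup_eq_top, comap_top])
  obtain ⟨M, _, ρ, p, m2, mc, p1, p2, p3, p4⟩ := exists_module hE hz hc
  have hρ : ∀ h, ρ h = 1 ↔ h ∈ E := fun h => by
    constructor
    · intro e
      refine hE.mem_of_trivial hC fun y hy => ?_
      have h1 := p4 h y hy
      have h2 := Normal.conj_mem inferInstance y hy h
      rw [e, Module.End.one_apply] at h1
      have := (p2 _ (E.mul_mem (E.inv_mem hy) h2)).1 (by
        rw [p1 _ (E.inv_mem hy) _ h2, ← h1, ← p1 _ (E.inv_mem hy) _ hy, inv_mul_cancel, p2 _ E.one_mem]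
        simp)
      exact this.imp (fun h => (inv_mul_eq_one.1 h).symm) fun h => inv_mul_eq_iff_eq_mul.1 h
    · intro he
      ext m
      obtain ⟨y, hy, rfl⟩ := p3 m
      rw [p4 h y hy, Module.End.one_apply]
      rcases hE.conj h he y hy with e | e <;> rw [e]
      rw [p1 y hy z hE.mem, (p2 z hE.mem).2 (Or.inr rfl), add_zero]
  let ρ' : H ⧸ E →* Module.End ℤ M := QuotientGroup.lift E ρ fun g hg => (hρ g).2 hg
  have q4 : q ω * q ω * q ω = 1 := by rw [← q3, pow_three']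
  have q5 : q ω * q ω * (q ω * q ω) = q ω := by rw [← mul_assoc, q4, one_mul]
  have cw : ∀ g, g⁻¹ * q ω * g = q ω ∨ g⁻¹ * q ω * g = q ω * q ω := fun g =>
    (mem_zp_three q3 (k2 ▸ Normal.conj_mem' inferInstance _ (k2 ▸ mem_zpowers _) g)).resolve_left fun h =>
      w1 (by simpa [mul_assoc] using congrArg (fun y => g * y * g⁻¹) h)
  have cw2 : ∀ g, g⁻¹ * (q ω * q ω) * g = g⁻¹ * q ω * g * (g⁻¹ * q ω * g) := fun g => by group
  have key := fpf ρ' m2 mc ea eb x11 (u := u)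
    (by rcases hu with rfl | rfl; exacts [q4, by rw [q5, ← mul_assoc, q4]]) a3
    (fun g => by
      rcases hu with rfl | rfl
      · exact cw g
      · rw [cw2, q5]; rcases cw g with h | h <;> simp [h, q5])
    (by rcases hu with rfl | rfl; exacts [aw, Commute.mul_right aw aw])
    (by rcases hu with rfl | rfl; exacts [bw, Commute.mul_right bw bw]) ba
    (fun h => w1 (by
      rcases hu with rfl | rfl
      · exact (hq ω).2 ((hρ ω).1 h)
      · rw [← q5, ← map_mul, (hq _).2 ((hρ (ω * ω)).1 h), one_mul]))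
  obtain ⟨ω', s, Λ, h, -⟩ := HM.of_data hE hz hc hC hEN hN θ hk hr ho hω (fun e he h => (p2 e he).1 (key _ (by
    have h1 : ρ ω (p e) = p e := by rw [p4 _ _ he, h, mul_inv_cancel_right]
    rcases hu with rfl | rfl
    · exact h1
    · rw [map_mul]; exact (congrArg (ρ ω) h1).trans h1))) (by
    have h1 := Sylow.normalizer_sup_eq_top (Sylow.ofCard (p := 3) ((zpowers ω).subgroupOf N) (by
      rw [card_subgroupOf hPN, cP, hN, factorization_eq_of (a := 1) (m := 2 ^ 13) (by norm_num) (by norm_num)]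
      norm_num))
    rw [Sylow.coe_ofCard, subgroupOf_map_subtype, inf_eq_left.2 hPN] at h1
    obtain ⟨l, rfl⟩ := qs l
    obtain ⟨k, hk', n, hn, rfl⟩ := (mem_sup_of_le_norm le_norm_of_normal).1 (h1 ▸ mem_top l)
    refine ⟨k, hk', fun e => hl ?_⟩
    have h2 : Commute (q n) (q ω) := by
      obtain ⟨i, hi⟩ : q n ∈ zpowers (q ω) := k2 ▸ k1 ▸ mem_map_of_mem q hn
      exact hi ▸ (Commute.refl _).zpow_left i
    rw [map_mul]
    exact Commute.mul_left (Commute.map e q) h2)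
  exact ⟨ω', s, Λ, h⟩

end Cfsg.Agent.JQ
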