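import Cfsg.Agent.J4.MX

/-! # Triples of codes -/

set_option autoImplicit false
set_option maxRecDepth 100000

namespace Cfsg.Agent.JQ

open Cfsg.Agent.M24 Cfsg.Agent.TT Cfsg.Agent.GT Cfsg.Agent.J4 Subgroup MulAction
open scoped Pointwise symmDiff

/-- first component -/
def tc (x : ℕ) : ℕ := Nat.land (Nat.shiftRight x (nat_lit 12)) (nat_lit 0xffffffffffffffffffffffffffffff)
/-- second component -/
def tb (x : ℕ) : ℕ := Nat.land x (nat_lit 4095)
/-- third component -/
def tr (x : ℕ) : ℕ := Nat.shiftRight x (nat_lit 132)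
/-- triples -/
def tk (c b r : ℕ) : ℕ :=
  Nat.add b (Nat.shiftLeft (Nat.add c (Nat.shiftLeft r (nat_lit 120))) (nat_lit 12))
/-- product of triples -/
noncomputable def tmul (p q : ℕ) : ℕ :=
  force (tc p) fun a => force (tc q) fun b => force (tr p) fun r => force (tr q) fun s =>
    force (tb q) fun v => force (mul a b) fun c => force (lin r v) fun w => force (rmul r s) fun k =>
      tk c (Nat.xor (tb p) w) k
/-- unit -/
def tone : ℕ := tk one 0 rone

theorem tc_tk {c b : ℕ} (h : c < 2 ^ 120) (hb : b < 4096) (r : ℕ) : tc (tk c b r) = c := by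
  show ((b + (c + r <<< 120) <<< 12) >>> 12) &&& (2 ^ 120 - 1) = c
  rw [Nat.and_two_pow_sub_one_eq_mod, Nat.shiftLeft_eq, Nat.shiftLeft_eq, Nat.shiftRight_eq_div_pow]
  omega

theorem tb_tk (c : ℕ) {b : ℕ} (hb : b < 4096) (r : ℕ) : tb (tk c b r) = b := by
  show (b + (c + r <<< 120) <<< 12) &&& (2 ^ 12 - 1) = b
  rw [Nat.and_two_pow_sub_one_eq_mod, Nat.shiftLeft_eq]; omega

theorem tr_tk {c b : ℕ} (h : c < 2 ^ 120) (hb : b < 4096) (r : ℕ) : tr (tk c b r) = r := by
  show (b + (c + r <<< 120) <<< 12) >>> 132 = r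
  rw [Nat.shiftLeft_eq, Nat.shiftLeft_eq, Nat.shiftRight_eq_div_pow]; omega

/-- the word is trivial if its permutation is -/
noncomputable def rel (gens : List ℕ) (w : ℕ) : Bool :=
  force (wev tmul id tone gens w) fun x => bor (!Nat.beq (tc x) one) (Nat.beq x tone)

/-- the triple of `T c * h` -/
noncomputable def cand (p b r c : ℕ) : ℕ :=
  force (lget lW 0 ((c >>> 6) &&& 15)) fun w => tk p ((c &&& 63) ^^^ lin w b) (rmul w r)

theorem chkG : ball (fun c => force (cand pG 0 kG c) fun x =>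
    bor (!rel [tk pW 0 kW, tk pY 0 kY, x] (nat_lit 0x63))
    (bor (!rel [tk pW 0 kW, tk pY 0 kY, x] (nat_lit 0x18461))
    (bor (!rel [tk pW 0 kW, tk pY 0 kY, x] (nat_lit 0x1886210c43108621884310c42))
    (bor (!rel [tk pW 0 kW, tk pY 0 kY, x] (nat_lit 0x310c42108621884210c4310842))
    (bor (Nat.beq x (tk pG 0 kG)) (Nat.beq (cand pG 0 kG (1600 ^^^ c)) (tk pG 0 kG))))))) 11 0 = true := by
  decide +kernel

theorem chkE : ball (fun c => force (cand (lget pE 0 0) 64 rone c) fun x =>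
    bor (!rel [tk pW 0 kW, tk pY 0 kY, tk pG 0 kG, x] (nat_lit 0x8120481))
    (bor (!rel [tk pW 0 kW, tk pY 0 kY, tk pG 0 kG, x] (nat_lit 0x822088220882))
    (bor (!rel [tk pW 0 kW, tk pY 0 kY, tk pG 0 kG, x] (nat_lit 0x8310c4120c431048310c41))
    (bor (!rel [tk pW 0 kW, tk pY 0 kY, tk pG 0 kG, x] (nat_lit 0x831106220c441888311062))
    (bor (!rel [tk pW 0 kW, tk pY 0 kY, tk pG 0 kG, x] (nat_lit 0x20c4220c4220c4220c4220c4220c42))
    (Nat.beq x (tk (lget pE 0 0) 64 rone))))))) 11 0 = true := by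
  decide +kernel

attribute [irreducible] tc tb tr tk

end Cfsg.Agent.JQ
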