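import Cfsg.Agent.J4.MB
import Cfsg.Agent.J4.MSd
import Cfsg.Agent.JP.P
import Cfsg.Agent.JQ.K

/-! # Normalising the complement `M₂₄` in a group of type `J₄` -/

set_option autoImplicit false
set_option maxRecDepth 100000

namespace Cfsg.Agent.JQ

open Cfsg.Agent.M24 Cfsg.Agent.TT Cfsg.Agent.GT Cfsg.Agent.J4 Subgroup MulAction
open scoped Pointwise symmDiff

theorem tw {G : Type*} [Group G] [Finite G] {z : G} {V : Subgroup G} {π : N[V] →* M24}
    {κ : M24 →* N[V]} {T : Finset GolayPt → G} (h : MS z V π κ T) (p : GolayPt) :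
    ∃ κ' : M24 →* N[V], MS z V π κ' T ∧ ∀ g, (κ' g : G) = T ({p} ∆ {g • p}) * κ g := by
  let f : M24 → N[V] := fun g => ⟨_, le_normalizer (h.T_mem ({p} ∆ {g • p}))⟩ * κ g
  refine ⟨MonoidHom.mk' f fun g k => Subtype.ext ?_,
    ⟨h.T_mul, h.T_mem, h.T_surj, h.T_one, h.card, h.conj, h.ker, fun g => ?_, h.sext, h.duad,
      h.cent2, h.uniq⟩, fun g => rfl⟩
  · have e := h.conj_κ g (even_pair p (k • p))
    rw [mul_inv_eq_iff_eq_mul, smul_symmDiff24, Finset.smul_finset_singleton,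
      Finset.smul_finset_singleton, ← mul_smul] at e
    show T _ * κ (g * k) = T _ * κ g * (T _ * κ k)
    rw [mul_assoc, ← mul_assoc (κ g : G), e, ← mul_assoc, ← mul_assoc,
      ← h.T_mul, symmDiff_assoc, symmDiff_symmDiff_cancel_left, map_mul, coe_mul, mul_assoc]
  · show π (_ * κ g) = g
    rw [map_mul, (h.ker _).2 (h.T_mem _), h.sec, one_mul]

variable {G H : Type*} [Group G] [Group H] [Finite G] {ι : H →* G} {z ω : H} {s : ℕ → H} {Λ : H →* R}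

/-- an element of the complement inside `H`, with its coordinates -/
def Rp (M : GM ι z ω s Λ) (κ : M24 →* N[M.V]) (x : ℕ) : Prop :=
  ∃ σ h, (κ σ : G) = ι h ∧ x = tk (mcode σ) (M.cb h) (rc (Λ h))

variable {M : GM ι z ω s Λ} {κ : M24 →* N[M.V]}

omit [Finite G] in
theorem Rp.spec {x : ℕ} (h : Rp M κ x) : ∃ σ h, (κ σ : G) = ι h ∧ tc x = mcode σ ∧ tb x = M.cb h ∧
    tr x = rc (Λ h) := by
  obtain ⟨σ, h, e, a⟩ := h
  exact ⟨σ, h, e, by rw [a, tc_tk (JP.mcode_lt _) (M.cb_lt _)], by rw [a, tb_tk _ (M.cb_lt _)],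
    by rw [a, tr_tk (JP.mcode_lt _) (M.cb_lt _)]⟩

omit [Finite G] in
theorem Rp.wev {gens : List ℕ} (hg : ∀ x ∈ gens, Rp M κ x) (w : ℕ) : Rp M κ (wev tmul id tone gens w) := by
  refine wev_ind ⟨1, 1, by simp, by rw [gcM.code_one, M.cb_one, map_one, gcR.code_one]; rfl⟩ ?_ hg w
  intro a b ha hb
  obtain ⟨σ, h, e, a1, a2, a3⟩ := ha.spec
  obtain ⟨τ, k, f, b1, b2, b3⟩ := hb.spec
  refine ⟨σ * τ, h * k, by rw [map_mul, coe_mul, e, f, map_mul], ?_⟩
  simp only [tmul, force_eq, a1, a2, a3, b1, b2, b3, gcM.code_mul, M.cb_mul, map_mul, gcR.code_mul]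
  rfl

omit [Finite G] in
theorem Rp.rel {gens : List ℕ} (hg : ∀ x ∈ gens, Rp M κ x) (w : ℕ) : rel gens w = true := by
  obtain ⟨σ, h, e, a⟩ := Rp.wev hg w
  simp only [JQ.rel, force_eq, a, tc_tk (JP.mcode_lt _) (M.cb_lt _), bor_eq, Bool.or_eq_true, Bool.not_eq_true',
    ← Bool.not_eq_true, Nat.beq_eq]
  refine or_iff_not_imp_left.2 fun k => ?_
  obtain rfl : σ = 1 := gcM.inj ((not_not.1 k).trans gcM.code_one.symm)
  obtain rfl : h = 1 := M.inj (by simpa using e.symm)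
  rw [gcM.code_one, M.cb_one, map_one, gcR.code_one]; rfl

variable {y g : H} {T : ℕ → H} {π : N[M.V] →* M24}

theorem rp_cand (D : VC M.toHM y g T 6) {σ : M24} {h : H} {c p b r : ℕ} (hc : c < 2048)
    (e : (κ σ : G) = ι (T c * h)) (hp : mcode σ = p) (hb : M.cb h = b) (hr : rc (Λ h) = r) :
    Rp M κ (cand p b r c) :=
  ⟨σ, _, e, by rw [cand, force_eq, M.cb_mul, map_mul, gcR.code_mul, D.cbT c hc, D.ΛT c hc, hp, hb, hr]⟩

theorem exists_T (J : JD M y g T π κ) (n : N[M.V]) {h : H} (e : (n : G) = ι h) :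
    ∃ c < 2048, (κ (π n) : G) = ι (T c * h) := by
  obtain ⟨c, hc, e1⟩ := J.px.co.surj _ (inv_mem (J.ms.mul_inv_κ_mem n))
  exact ⟨c, hc, by rw [map_mul, e1, ← e]; simp⟩

/-- generators -/
noncomputable def gS : List ℕ := [tk pW 0 kW, tk pY 0 kY, tk pG 0 kG, tk (lget pE 0 0) 64 rone]

theorem exists_nk (J : JD M y g T π κ) :
    ∃ κ' : M24 →* N[M.V], JD M y g T π κ' ∧ ∀ x ∈ gS, Rp M κ' x := by
  have D := J.vc
  have aW := D.actW.map ι
  have aY := D.actY.map ι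
  have aG := D.actG.map ι
  have aE := (D.actE 0 (by norm_num)).map ι
  let nW : N[M.V] := ⟨_, J.px.co.act_norm aW⟩
  let nY : N[M.V] := ⟨_, J.px.co.act_norm aY⟩
  let nG : N[M.V] := ⟨_, J.px.co.act_norm aG⟩
  let nE : N[M.V] := ⟨_, J.px.co.act_norm aE⟩
  have bW : mcode (π nW) = pW := J.px.code_eq aW (by decide +kernel)
  have bY : mcode (π nY) = pY := J.px.code_eq aY (by decide +kernel)
  have bG : mcode (π nG) = pG := J.px.code_eq aG (by decide +kernel)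
  have bE : mcode (π nE) = lget pE 0 0 := J.px.code_eq aE (by decide +kernel)
  have cm : Commute ω y := (M.conj_ω D.y_mem (gcR.inj (by
    rw [gcR.code_mul, gcR.code_mul, D.Λy, rc_rW]; decide +kernel))).symm
  have p10 : (ω * y) ^ 10 = ω := by
    rw [cm.mul_pow, show 10 = 3 * 3 + 1 from rfl, pow_succ ω, pow_mul, M.ω3, show 3 * 3 + 1 = 5 * 2 from rfl,
      pow_mul, D.y5]; simp
  have p6 : (ω * y) ^ 6 = y := by
    rw [cm.mul_pow, show 6 = 3 * 2 from rfl, pow_mul, M.ω3, show 3 * 2 = 5 + 1 from rfl, pow_succ y, D.y5]; simp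
  have p15 : (nW * nY) ^ 15 = 1 := Subtype.ext (by
    show (ι ω * ι y) ^ 15 = 1
    rw [← map_mul, ← map_pow, cm.mul_pow, show 15 = 3 * 5 from rfl, pow_mul, M.ω3, mul_comm, pow_mul, D.y5]
    simp)
  have od : ∀ a : N[M.V], a ^ 15 = 1 → Odd (orderOf (a : G)) := fun a h =>
    Odd.of_dvd_nat (by decide) (orderOf_dvd_of_pow_eq_one (n := 15) (by rw [← coe_pow, h]; rfl))
  obtain ⟨v, hv, e⟩ := conj_of_coset (K := M.V) (a := κ (π (nW * nY))) (m := (nW * nY : N[M.V]))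
    (pg_of_sq M.V_sq) (Subtype.property _) (od _ (by rw [← map_pow, ← map_pow, p15]; simp)) (od _ p15)
    (J.ms.mul_inv_κ_mem _)
  obtain ⟨κ1, m1, e1⟩ := J.ms.twist hv
  have J1 : JD M y g T π κ1 := ⟨D, J.cls, J.px, m1, J.gg⟩
  have f0 : ∀ n, (κ1 (π ((nW * nY) ^ n)) : G) = ι ((ω * y) ^ n) := fun n => by
    rw [map_pow, map_pow, coe_pow, e1, ← e, map_pow, map_mul]; rfl
  have f1 := f0 10
  have f2 := f0 6
  rw [p10, show (nW * nY) ^ 10 = nW from Subtype.ext (by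
    show (ι ω * ι y) ^ 10 = ι ω; rw [← map_mul, ← map_pow, p10])] at f1
  rw [p6, show (nW * nY) ^ 6 = nY from Subtype.ext (by
    show (ι ω * ι y) ^ 6 = ι y; rw [← map_mul, ← map_pow, p6])] at f2
  have rW' : ∀ κ : M24 →* N[M.V], (κ (π nW) : G) = ι ω → Rp M κ (tk pW 0 kW) := fun κ h =>
    ⟨_, _, h, by rw [bW, M.cb_norm HM.ω_mem, M.Λω, rc_rW]⟩
  have rY' : ∀ κ : M24 →* N[M.V], (κ (π nY) : G) = ι y → Rp M κ (tk pY 0 kY) := fun κ h =>
    ⟨_, _, h, by rw [bY, M.cb_norm D.y_mem, D.Λy]⟩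
  obtain ⟨κ2, J2, r1, r2, r3⟩ : ∃ κ2 : M24 →* N[M.V], JD M y g T π κ2 ∧ Rp M κ2 (tk pW 0 kW) ∧
      Rp M κ2 (tk pY 0 kY) ∧ Rp M κ2 (tk pG 0 kG) := by
    obtain ⟨c, hc, e2⟩ := exists_T J1 nG rfl
    have r3 := rp_cand D hc e2 bG (M.cb_norm D.g_mem) D.Λg
    have hg : ∀ x ∈ [tk pW 0 kW, tk pY 0 kY, cand pG 0 kG c], Rp M κ1 x := by
      simp only [List.forall_mem_cons]; exact ⟨rW' _ f1, rY' _ f2, r3, by simp⟩
    have k := ball_zero chkG c hc
    simp only [force_eq, Rp.rel hg, Bool.not_true, bor_eq, Bool.false_or, Bool.or_eq_true, Nat.beq_eq] at k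
    rcases k with k | k
    · exact ⟨κ1, J1, rW' _ f1, rY' _ f2, k ▸ r3⟩
    obtain ⟨κ2, m2, e3⟩ := tw m1 (pt 18)
    have q : ∀ {σ : M24} {c i : ℕ}, mcode σ = c → Nat.beq (ap c (idx (pt 18))) (idx (pt i)) = true →
        σ • pt 18 = pt i := fun h h' => apply_of_code h _ _ h'
    refine ⟨κ2, ⟨D, J.cls, J.px, m2, J.gg⟩, rW' _ ?_, rY' _ ?_, k ▸ rp_cand D
      (Nat.xor_lt_two_pow (n := 11) (by norm_num) hc) ?_ bG (M.cb_norm D.g_mem) D.Λg⟩
    · rw [e3, q bW (i := 18) (by decide +kernel), symmDiff_self, Finset.bot_eq_empty, m1.T_empty, one_mul, f1]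
    · rw [e3, q bY (i := 18) (by decide +kernel), symmDiff_self, Finset.bot_eq_empty, m1.T_empty, one_mul, f2]
    · rw [e3, q bG (i := 4) (by decide +kernel), e2, mask_symmDiff, mask_singleton, mask_singleton,
        D.co.mul, mul_assoc, map_mul ι (T 1600)]
      congr 3
      decide +kernel
  obtain ⟨c, hc, e2⟩ := exists_T J2 nE rfl
  have r4 := rp_cand D hc e2 bE (M.cb_s (by norm_num)) (by rw [M.Λs (by norm_num), gcR.code_one])
  have hg : ∀ x ∈ [tk pW 0 kW, tk pY 0 kY, tk pG 0 kG, cand (lget pE 0 0) 64 rone c], Rp M κ2 x := by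
    simp only [List.forall_mem_cons]; exact ⟨r1, r2, r3, r4, by simp⟩
  have k := ball_zero chkE c hc
  simp only [force_eq, Rp.rel hg, Bool.not_true, bor_eq, Bool.false_or, Nat.beq_eq] at k
  exact ⟨κ2, J2, by rw [gS, ← k]; exact hg⟩

end Cfsg.Agent.JQ
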