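import Cfsg.Agent.JQ.B

/-! # The trio involution in a group of type `J₄` -/

set_option autoImplicit false
set_option maxRecDepth 100000
set_option linter.unusedSectionVars false

namespace Cfsg.Agent.JQ

open Cfsg.Agent.M24 Cfsg.Agent.TT Cfsg.Agent.GT Cfsg.Agent.J4 Subgroup MulAction
open scoped Pointwise symmDiff

/-- test on the value of a word -/
noncomputable def wd (p w : ℕ) (f : ℕ → ℕ → Bool) : Bool :=
  force (wev tmul id tone gS w) fun x => band (Nat.beq (tc x) p) (force (tb x) fun b => force (tr x) (f b))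
/-- elements of the second hexad group -/
noncomputable def wj (c : ℕ) : ℕ := force (lget lW 0 ((c >>> 6) &&& 15)) (cjap rmul rinv kV)
/-- admissible coordinates -/
noncomputable def okc (c : ℕ) : Bool :=
  band (Nat.ble c 2047) (band (Nat.beq (c &&& 63) 0) (!tbq 102 (cl clT6 (c ^^^ 1024))))
/-- image of the trio involution -/
def r0 : ℕ := nat_lit 0xbc6b423ec2921260a9ae3b0b31c1608004002001000800400e00500880c4b42d818004002001000800400e00500880c4b42d81
/-- test for a conjugate of the trio involution -/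
noncomputable def cjk (c b r : ℕ) : Bool :=
  band (okc c) (force (cjap rmul rinv r r0) fun l => band (Nat.beq l (wj c)) (Nat.beq (lin l b) b))
/-- data -/
def l1 : ℕ := nat_lit 0xbae95218306392fb29a83c87328a20380240fc0a80d40bc000f00a03d02b02d01b380240fc0a80d40bc000f00a03d02b02d01b
/-- data -/
def l2 : ℕ := nat_lit 0x4f5b496c789289d1b01b95129897c00400f40580b80dc002f03500600b00e007c00400980ec0bc0d4002b03d00a00f007009
/-- data -/
def l3 : ℕ := nat_lit 0x2ce58982f6393098da8a0956ac8971402809c0e40b80dc000b00d01a02f02a03f1c0240fc0540bc0d4000f00501602b01b02d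
/-- data -/
def kE : ℕ := nat_lit 0x26d15865010d07a554e9988f2b597927e1eb68d94ff656d281142b3561aa525e326b3961192375f2a612be157b9a66f8464cb
/-- commutation of the vector parts -/
noncomputable def cv' (l b l' b' : ℕ) : Bool := Nat.beq (b ^^^ lin l b') (b' ^^^ lin l' b)

theorem chkC : enum rmul (fun k => force (cjap rmul rinv kE k) fun l => bor (!cm l l2) (bor (!cm l l3)
    (ball (fun b => bor (!cv' l b l1 1088) (bor (!cv' l b l2 128) (bor (!cv' l b l3 3904)
      (band (bor (Nat.beq l rone) (Nat.beq l r0)) (bor (Nat.beq b 0) (Nat.beq b 36)))))) 12 0))) chC rone = true := by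
  decide +kernel

variable {G H : Type*} [Group G] [Group H] [Finite G] {ι : H →* G} {z ω : H} {s : ℕ → H} {Λ : H →* R}

theorem cent3 (M : HM z ω s Λ) {h a b c : H} (ha : h * a = a * h) (hb : h * b = b * h) (hc : h * c = c * h)
    (a1 : M.cb a = 1088) (a2 : rc (Λ a) = l1) (b1 : M.cb b = 128) (b2 : rc (Λ b) = l2)
    (c1 : M.cb c = 3904) (c2 : rc (Λ c) = l3) :
    (rc (Λ h) = rone ∨ rc (Λ h) = r0) ∧ (M.cb h = 0 ∨ M.cb h = 36) := by
  obtain ⟨e1, e2⟩ := relt_mem (k := kE) (by decide +kernel)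
  generalize relt kE = e at e1 e2
  have e3 : Λ a = e * w0 * e⁻¹ := gcR.inj (by rw [← gcR.cjap_code, e2, rc_w0, a2]; decide +kernel)
  have f : ∀ {x : H}, h * x = x * h → Λ h * Λ x = Λ x * Λ h := fun k => by rw [← map_mul, k, map_mul]
  have k := forall_of_enumR chC_chk chkC (e⁻¹ * Λ h * e) (cent_w0
    (mul_mem (mul_mem (inv_mem e1) (M.mem h)) e1) (by
      have := f ha
      rw [e3] at this
      calc _ = e⁻¹ * (Λ h * (e * w0 * e⁻¹)) * e := by group
        _ = _ := by rw [this]; group))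
  have v : ∀ {x : H}, h * x = x * h → cv' (rc (Λ h)) (M.cb h) (rc (Λ x)) (M.cb x) = true := fun k => by
    rw [cv', Nat.beq_eq, ← M.cb_mul, ← M.cb_mul, k]
  rw [force_eq, ← e2, gcR.cjap_code, show e * (e⁻¹ * Λ h * e) * e⁻¹ = Λ h by group, ← b2, ← c2,
    cm_of (f hb), cm_of (f hc)] at k
  simp only [Bool.not_true, bor_eq, Bool.false_or] at k
  have k2 := ball_zero k _ (M.cb_lt h)
  rw [← a1, ← a2, ← b1, ← c1, v ha, v hb, v hc] at k2
  simpa [bor_eq, band_eq] using k2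

/-- normalised data -/
structure NK (M : GM ι z ω s Λ) (y g : H) (T : ℕ → H) (π : N[M.V] →* M24) (κ : M24 →* N[M.V]) (v : H) :
    Prop where
  jd : JD M y g T π κ
  rp : ∀ x ∈ gS, Rp M κ x
  vm : v ∈ N[zpowers ω]
  vl : rc (Λ v) = kV

namespace NK

variable {M : GM ι z ω s Λ} {y g : H} {T : ℕ → H} {π : N[M.V] →* M24} {κ : M24 →* N[M.V]} {v : H}
  (N : NK M y g T π κ v)
include N

theorem word {σ : M24} {p : ℕ} (hσ : mcode σ = p) (w : ℕ) (f : ℕ → ℕ → Bool) (h : wd p w f = true) :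
    ∃ h, (κ σ : G) = ι h ∧ f (M.cb h) (rc (Λ h)) = true := by
  obtain ⟨τ, k, e, a1, a2, a3⟩ := (Rp.wev N.rp w).spec
  simp only [wd, force_eq, band_eq, Bool.and_eq_true, Nat.beq_eq, a1, a2, a3] at h
  obtain rfl : τ = σ := gcM.inj (h.1.trans hσ.symm)
  exact ⟨k, e, h.2⟩

theorem word' {σ : M24} {p : ℕ} (hσ : mcode σ = p) (w b r : ℕ)
    (h : wd p w (fun b' r' => band (Nat.beq b' b) (Nat.beq r' r)) = true) :
    ∃ h, (κ σ : G) = ι h ∧ M.cb h = b ∧ rc (Λ h) = r := by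
  simpa [band_eq] using N.word hσ w _ h

theorem crd {c : ℕ} (hc : c < 2048) (h : c &&& 63 = 0) :
    M.cb (v * T c * v⁻¹) = 0 ∧ rc (Λ (v * T c * v⁻¹)) = wj c :=
  ⟨M.cb_norm (mul_mem (mul_mem N.vm (M.mem_norm_of_cb ((N.jd.vc.cbT c hc).trans h))) (inv_mem N.vm)), by
    rw [map_mul, map_mul, map_inv, ← gcR.cjap_code, N.vl, N.jd.vc.ΛT c hc, wj, force_eq]⟩

theorem uniq {c : ℕ} (hc : okc c = true) {h : H} (h1 : M.cb h = 0) (h2 : rc (Λ h) = wj c)
    (h3 : IsConj (ι z) (ι h)) : h = v * T c * v⁻¹ := by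
  simp only [okc, band_eq, Bool.and_eq_true, Nat.ble_eq, Nat.beq_eq, Bool.not_eq_true'] at hc
  obtain ⟨a, b⟩ := N.crd (c := c) (by omega) hc.2.1
  refine (M.eq_of_crd (h1.trans a.symm) (gcR.inj (h2.trans b.symm))).resolve_right fun e => ?_
  have := (N.jd.cls (c ^^^ 1024) (Nat.xor_lt_two_pow (n := 11) (by omega) (by norm_num))).1 (by
    rw [e, mul_assoc, M.zc, ← mul_assoc, mul_assoc v, ← N.jd.vc.Tz, ← N.jd.vc.co.mul, map_mul, map_mul,
      map_inv, isConj_conj] at h3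
    rwa [← N.jd.vc.Tz])
  rw [hc.2.2] at this
  exact absurd this (by simp)

theorem t0 : IsConj (ι z) (ι (v * T 1088 * v⁻¹)) ∧ M.cb (v * T 1088 * v⁻¹) = 0 ∧
    rc (Λ (v * T 1088 * v⁻¹)) = r0 := by
  obtain ⟨a, b⟩ := N.crd (c := 1088) (by norm_num) rfl
  refine ⟨?_, a, b.trans (by decide +kernel)⟩
  rw [map_mul, map_mul, map_inv, isConj_conj]
  exact (N.jd.cls _ (by norm_num)).2 (by decide +kernel)

theorem cjw {σ : M24} {p : ℕ} (hσ : mcode σ = p) (w c : ℕ) (h : wd p w (cjk c) = true) :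
    κ σ * ι (v * T 1088 * v⁻¹) * (κ σ : G)⁻¹ = ι (v * T c * v⁻¹) := by
  obtain ⟨k, e, h⟩ := N.word hσ w _ h
  obtain ⟨a1, a2, a3⟩ := N.t0
  generalize v * T 1088 * v⁻¹ = t at *
  simp only [cjk, force_eq, band_eq, Bool.and_eq_true, Nat.beq_eq, ← a3, gcR.cjap_code] at h
  rw [← map_inv, ← map_mul, ← map_mul] at h
  rw [e, ← map_inv, ← map_mul, ← map_mul]
  exact congrArg ι (N.uniq h.1 (by rw [M.cb_conj, a2, lin_zero, h.2.2]; simp) h.2.1 (by
    rwa [map_mul, map_mul, map_inv, isConj_conj]))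

theorem cmw {σ : M24} {p : ℕ} (hσ : mcode σ = p) (w : ℕ) (h : wd p w (cjk 1088) = true) :
    Commute (κ σ : G) (ι (v * T 1088 * v⁻¹)) :=
  mul_inv_eq_iff_eq_mul.1 (N.cjw hσ w _ h)

theorem cjT {σ : M24} {p c : ℕ} (hσ : mcode σ = p) (h : Nat.beq (tv (act p 65801)) c = true) :
    κ σ * ι z * (κ σ : G)⁻¹ = ι (T c) := by
  have := N.jd.ms.conj_κ σ (X := X0) (by rw [card_X0]; decide)
  rwa [tv_X0, N.jd.vc.Tz, ← acSM.ap_code σ trivial, hσ, mask_X0, Nat.eq_of_beq_eq_true h] at this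

theorem not_mem : ι (v * T 1088 * v⁻¹) ∉ N[M.V] := fun h => by
  have := congrArg mask (mem_NV.1 (M.mem_norm_V.1 h)).2
  rw [← acSM.ap_code _ trivial, ← rp_rc, N.t0.2.2, mask_H0] at this
  revert this; decide +kernel

theorem comm1 {σ : M24} (hσ : mcode σ = nat_lit 0x3829530d257c6446c04cb051754dcb) :
    Commute (κ σ : G) (ι (v * T 1088 * v⁻¹)) := by
  have := M.finH
  obtain ⟨a1, a2, a3⟩ := N.t0
  have nm := N.not_mem
  have key : ∀ p q w w' b r, band (band (isM24 q) (Nat.beq (cjap mul inv (nat_lit 0x3829530d257c6446c04cb051754dcb) q) p))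
      (band (wd p w fun b' r' => band (Nat.beq b' b) (Nat.beq r' r)) (wd q w' (cjk 1088))) = true →
      ∃ a, Commute (κ σ * ι (v * T 1088 * v⁻¹) * (κ σ : G)⁻¹) (ι a) ∧ M.cb a = b ∧ rc (Λ a) = r := by
    intro p q w w' b r h
    simp only [band_eq, Bool.and_eq_true] at h
    obtain ⟨τ, hτ⟩ := exists_mcode h.1.1
    obtain ⟨a, e, h1⟩ := N.word' (σ := σ * τ * σ⁻¹) (p := p) (by
      rw [← gcM.cjap_code, hσ, hτ]; exact Nat.eq_of_beq_eq_true h.1.2) w b r (by simpa [band_eq] using h.2.1)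
    refine ⟨a, ?_, h1⟩
    rw [← e, map_mul κ, map_mul κ, map_inv κ]
    exact (N.cmw hτ w' h.2.2).symm.conj _
  obtain ⟨a, ha, b1, b2⟩ := key (nat_lit 0x250657c22a9bac838135b99ab60452) (nat_lit 0x236129a22b1394038cc5aa68cb3c37)
    (nat_lit 0x108621882311043) (nat_lit 0x10432084220c43) 1088 l1 (by decide +kernel)
  obtain ⟨b, hb, b3, b4⟩ := key (nat_lit 0x3b40292171ada63a40ae7dc814a986) (nat_lit 0x7cd362460ca00a6138725a037534f5)
    (nat_lit 0x831106219042) (nat_lit 0x46411062) 128 l2 (by decide +kernel)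
  obtain ⟨c, hc, b5, b6⟩ := key (nat_lit 0x1c081b5151bd5ed01d8e9c90249566) (nat_lit 0x14ccc6c50520ea97ba0b50032b9e96)
    (nat_lit 0x1104410c81) (nat_lit 0x18844) 3904 l3 (by decide +kernel)
  have c1 := N.cjT (σ := σ⁻¹) (c := 56 ^^^ 1024) ((gcM.code_inv σ).trans (by rw [hσ])) (by decide +kernel)
  have c2 : Commute (ι (v * T 1088 * v⁻¹)) (ι (T (56 ^^^ 1024))) := by
    rw [N.jd.vc.co.mul, N.jd.vc.Ts 56 (by norm_num), N.jd.vc.Tz]
    exact Commute.map (Commute.mul_right (M.comm_s_of (by norm_num) (by rw [a3]; decide +kernel)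
      (by rw [a2, a3]; decide +kernel)) (M.zc _)) ι
  have u := fun h => N.uniq (c := 1088) (by decide +kernel) (h := h)
  generalize v * T 1088 * v⁻¹ = t at *
  obtain ⟨h, hh⟩ := M.surj (κ σ * ι t * (κ σ : G)⁻¹) (by
    have := c2.conj (κ σ : G)
    rw [← c1, map_inv] at this
    simpa [mul_assoc] using this.eq)
  rw [← hh] at ha hb hc
  have f : ∀ {x : H}, Commute (ι h) (ι x) → h * x = x * h := fun k => M.inj (by simpa using k.eq)
  have cj : IsConj (ι z) (ι h) := by rwa [hh, isConj_conj]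
  obtain ⟨k1 | k1, k2⟩ := cent3 M.toHM (f ha) (f hb) (f hc) b1 b2 b3 b4 b5 b6
  · have : ι h ∈ N[M.V] := M.mem_norm_V.2 (by rw [gcR.inj (k1.trans gcR.code_one.symm)]; exact one_mem _)
    rw [hh] at this
    exact absurd (by simpa [mul_assoc] using mul_mem (mul_mem (inv_mem (κ σ).2) this) (κ σ).2) nm
  rcases k2 with k2 | k2
  · rw [u h k2 (k1.trans (by decide +kernel)) cj, eq_comm, mul_inv_eq_iff_eq_mul] at hh
    exact hh
  obtain ⟨lc, K, -⟩ := N.jd.exists_kd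
  have k3 := M.typeW (N.jd.iv_cls N.jd.mc.z_sq) N.jd.vc.T64.1 N.jd.vc.T64.2 (h := v⁻¹ * h * v⁻¹⁻¹) (gcR.inj (by
    rw [map_mul, map_mul, map_inv _ v⁻¹, ← gcR.cjap_code, map_inv, gcR.code_inv, N.vl, k1, rc_w0]
    decide +kernel))
  rw [K.hA, M.cb_conj, M.cb_norm (inv_mem N.vm), lin_zero, k2, map_inv, gcR.code_inv, N.vl,
    show tyW (0 ^^^ lin (rinv kV) 36 ^^^ 0) = 3 by decide +kernel, HM.mu,
    ind1_pos (by rwa [map_mul, map_mul, map_inv _ v⁻¹, isConj_conj])] at k3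
  simp [b2n_eq] at k3

end NK

end Cfsg.Agent.JQ
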